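import Cfsg.Agent.Th23.Poisson

/-!
# Theta series of even unimodular lattices
-/

namespace Cfsg.Agent.Th23

open Complex Real Finset Matrix

/-- integral quadratic form of an integral matrix -/
def qz {n : ℕ} (A : Matrix (Fin n) (Fin n) ℤ) (x : Fin n → ℤ) : ℤ := x ⬝ᵥ A *ᵥ x

/-- even unimodular positive definite Gram matrix -/
structure EU {n : ℕ} (A : Matrix (Fin n) (Fin n) ℤ) : Prop where
  symm : A.IsSymm
  pos : ∀ x : Fin n → ℤ, x ≠ 0 → 0 < x ⬝ᵥ A *ᵥ x
  even : ∀ i, Even (A i i)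
  det : IsUnit A.det

/-- real matrix of an integral matrix -/
def mR {n : ℕ} (A : Matrix (Fin n) (Fin n) ℤ) : Matrix (Fin n) (Fin n) ℝ :=
  A.map (Int.castRingHom ℝ)

theorem qz_eq {n : ℕ} (A : Matrix (Fin n) (Fin n) ℤ) (x : Fin n → ℤ) :
    qz A x = ∑ i, ∑ j, A i j * x i * x j := by
  simp only [qz, dotProduct, Matrix.mulVec, Finset.mul_sum]
  exact Finset.sum_congr rfl fun i _ => Finset.sum_congr rfl fun j _ => by ring

theorem qr_mR {n : ℕ} (A : Matrix (Fin n) (Fin n) ℤ) (x : Fin n → ℤ) :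
    qr (mR A) (fun i => (x i : ℝ)) = (qz A x : ℝ) := by
  simp [qr, mR, qz_eq]

theorem qf_mR {n : ℕ} (A : Matrix (Fin n) (Fin n) ℤ) (x : Fin n → ℤ) :
    qf (mR A) (fun i => (x i : ℂ)) = (qz A x : ℂ) := by
  rw [qf_int, qr_mR]; simp

theorem qr_eq_dot {n : ℕ} (M : Matrix (Fin n) (Fin n) ℝ) (x : Fin n → ℝ) :
    qr M x = x ⬝ᵥ M *ᵥ x := by
  simp only [qr, dotProduct, Matrix.mulVec, Finset.mul_sum]
  exact Finset.sum_congr rfl fun i _ => Finset.sum_congr rfl fun j _ => by ring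

theorem even_qz {n : ℕ} {A : Matrix (Fin n) (Fin n) ℤ} (hs : A.IsSymm) (he : ∀ i, Even (A i i))
    (x : Fin n → ℤ) : Even (qz A x) := by
  induction n with
  | zero => simp [qz_eq]
  | succ n ih =>
    have h := ih (A := A.submatrix Fin.succ Fin.succ)
      (Matrix.IsSymm.ext fun i j => hs.apply _ _) (fun i => he _) (fun i => x i.succ)
    rw [qz_eq] at h ⊢
    simp only [Matrix.submatrix_apply] at h
    simp only [Fin.sum_univ_succ, Finset.sum_add_distrib]
    have h1 : ∑ i : Fin n, A 0 i.succ * x 0 * x i.succ = ∑ i : Fin n, A i.succ 0 * x i.succ * x 0 :=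
      Finset.sum_congr rfl fun i _ => by rw [hs.apply i.succ 0]; ring
    rw [h1, add_assoc, ← add_assoc (∑ i : Fin n, A i.succ 0 * x i.succ * x 0)]
    refine Even.add ?_ (Even.add ⟨_, rfl⟩ h)
    rw [mul_assoc]
    exact (he 0).mul_right _

theorem qr_nonneg_of_int {n : ℕ} {A : Matrix (Fin n) (Fin n) ℤ}
    (hp : ∀ x : Fin n → ℤ, x ≠ 0 → 0 < x ⬝ᵥ A *ᵥ x) (x : Fin n → ℝ) : 0 ≤ qr (mR A) x := by
  have hd : DenseRange (Pi.map fun (_ : Fin n) (q : ℚ) => (q : ℝ)) :=
    DenseRange.piMap fun _ => Rat.denseRange_cast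
  refine hd.induction_on x (isClosed_le continuous_const (by unfold qr; fun_prop)) fun y => ?_
  set N : ℕ := ∏ i, (y i).den with hN
  have hN0 : (0 : ℝ) < N := by
    rw [hN]; exact_mod_cast Finset.prod_pos fun i _ => (y i).den_pos
  have hz : ∀ i, ∃ z : ℤ, (z : ℚ) = N * y i := by
    intro i
    obtain ⟨c, hc⟩ : (y i).den ∣ N := Finset.dvd_prod_of_mem _ (Finset.mem_univ i)
    refine ⟨c * (y i).num, ?_⟩
    rw [hc]; push_cast
    rw [← Rat.mul_den_eq_num]; ring
  choose z hz using hz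
  have h1 : (fun i => (z i : ℝ)) = (N : ℝ) • Pi.map (fun (_ : Fin n) (q : ℚ) => (q : ℝ)) y := by
    funext i
    have := congrArg (fun t : ℚ => (t : ℝ)) (hz i)
    simpa using this
  have h2 : (0 : ℝ) ≤ qr (mR A) (fun i => (z i : ℝ)) := by
    rw [qr_mR]
    by_cases h : z = 0
    · subst h; simp [qz]
    · exact_mod_cast (hp z h).le
  rw [h1, qr_smul] at h2
  exact (mul_nonneg_iff_of_pos_left (by positivity)).mp h2

theorem pd_of_int {n : ℕ} {A : Matrix (Fin n) (Fin n) ℤ} (hs : A.IsSymm)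
    (hp : ∀ x : Fin n → ℤ, x ≠ 0 → 0 < x ⬝ᵥ A *ᵥ x) (hd : A.det ≠ 0) : PD (mR A) := by
  intro x hx
  refine lt_of_le_of_ne (qr_nonneg_of_int hp x) fun h0 => hx ?_
  have hsR : (mR A).IsSymm := hs.map _
  have key : ∀ y : Fin n → ℝ, y ⬝ᵥ mR A *ᵥ x = 0 := by
    intro y
    have h1 : ∀ t : ℝ, 0 ≤ qr (mR A) y * (t * t) + (2 * (y ⬝ᵥ mR A *ᵥ x)) * t + 0 := by
      intro t
      have := qr_nonneg_of_int hp (x + t • y)
      rw [qr_eq_dot, Matrix.mulVec_add, Matrix.mulVec_smul, add_dotProduct, dotProduct_add,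
        dotProduct_add, smul_dotProduct, dotProduct_smul, dotProduct_smul, smul_dotProduct,
        ← qr_eq_dot, ← qr_eq_dot, ← h0] at this
      have h2 : x ⬝ᵥ mR A *ᵥ y = y ⬝ᵥ mR A *ᵥ x := by
        rw [Matrix.dotProduct_mulVec, ← Matrix.mulVec_transpose, hsR.eq, dotProduct_comm]
      rw [h2] at this
      simp only [smul_eq_mul] at this
      linarith
    have := discrim_le_zero h1
    rw [discrim] at this
    nlinarith
  have h3 : mR A *ᵥ x = 0 := by
    have := key (mR A *ᵥ x)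
    exact dotProduct_self_eq_zero.mp this
  have h4 : (mR A).det ≠ 0 := by
    rw [mR, ← RingHom.mapMatrix_apply, ← RingHom.map_det]
    simpa using hd
  exact Matrix.eq_zero_of_mulVec_eq_zero h4 h3

theorem EU.pd {n : ℕ} {A : Matrix (Fin n) (Fin n) ℤ} (h : EU A) : PD (mR A) :=
  pd_of_int h.symm h.pos h.det.ne_zero

/-- theta series as a function on `ℂ` -/
noncomputable def thC {n : ℕ} (A : Matrix (Fin n) (Fin n) ℤ) (z : ℂ) : ℂ :=
  ∑' x : Fin n → ℤ, cexp (π * I * z * qz A x)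

theorem term_eq_gT {n : ℕ} (A : Matrix (Fin n) (Fin n) ℤ) (z : ℂ) (x : Fin n → ℤ) :
    cexp (π * I * z * qz A x) = gT (mR A) (-I * z) 0 x := by
  rw [gT, qf_mR]
  congr 1
  simp only [Pi.zero_apply, zero_mul, Finset.sum_const_zero]
  ring

theorem re_neg_I_mul (z : ℂ) : (-I * z).re = z.im := by simp

theorem summable_th {n : ℕ} {A : Matrix (Fin n) (Fin n) ℤ} (h : PD (mR A)) {z : ℂ}
    (hz : 0 < z.im) : Summable (fun x : Fin n → ℤ => cexp (π * I * z * qz A x)) := by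
  simp only [term_eq_gT]
  exact summable_gT h (by rwa [re_neg_I_mul]) 0

theorem norm_term {n : ℕ} (A : Matrix (Fin n) (Fin n) ℤ) (z : ℂ) (x : Fin n → ℤ) :
    ‖cexp (π * I * z * qz A x)‖ = rexp (-π * z.im * qz A x) := by
  rw [Complex.norm_exp]
  congr 1
  simp

theorem thC_add_one {n : ℕ} {A : Matrix (Fin n) (Fin n) ℤ} (h : EU A) (z : ℂ) :
    thC A (z + 1) = thC A z := by
  refine tsum_congr fun x => ?_
  obtain ⟨k, hk⟩ := even_qz h.symm h.even x
  rw [hk]
  have : π * I * (z + 1) * ((k + k : ℤ) : ℂ) = π * I * z * ((k + k : ℤ) : ℂ) + k * (2 * π * I) := by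
    push_cast; ring
  rw [this, Complex.exp_add, Complex.exp_int_mul_two_pi_mul_I, mul_one]

theorem thC_inv {n : ℕ} {A : Matrix (Fin n) (Fin n) ℤ} (h : EU A) {z : ℂ} (hz : 0 < z.im) :
    thC A (-1 / z) = ((-I * z) ^ (1 / 2 : ℂ)) ^ n * thC A z := by
  have hz0 : z ≠ 0 := by rintro rfl; simp at hz
  have hAB : A * A⁻¹ = 1 := Matrix.mul_nonsing_inv A h.det
  have hBA : A⁻¹ * A = 1 := Matrix.nonsing_inv_mul A h.det
  have hBs : (A⁻¹).IsSymm := by
    rw [Matrix.IsSymm, Matrix.transpose_nonsing_inv, h.symm.eq]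
  have hABR : mR A * mR A⁻¹ = 1 := by
    rw [mR, mR, ← Matrix.map_mul, hAB, Matrix.map_one _ (map_zero _) (map_one _)]
  obtain ⟨c, hc, hcd, hP⟩ := poisson (mR A) (mR A⁻¹) (h.symm.map _) (hBs.map _) h.pd hABR
  have hdet : (mR A).det = (A.det : ℝ) := by
    rw [mR, ← RingHom.mapMatrix_apply, ← RingHom.map_det]; rfl
  have hc1 : c = 1 := by
    rw [hdet] at hcd
    rcases Int.isUnit_iff.mp h.det with h1 | h1
    · rw [h1] at hcd
      simp only [Int.cast_one, mul_one] at hcd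
      nlinarith
    · rw [h1] at hcd
      simp only [Int.cast_neg, Int.cast_one] at hcd
      nlinarith
  have h1 := hP (-I * z) (by rwa [re_neg_I_mul]) 0
  have h2 : ∑' y, gU (mR A⁻¹) (-I * z) 0 y = thC A (-1 / z) := by
    let e : (Fin n → ℤ) ≃ (Fin n → ℤ) :=
      { toFun := fun x => A *ᵥ x
        invFun := fun y => A⁻¹ *ᵥ y
        left_inv := fun x => by simp only [Matrix.mulVec_mulVec, hBA, Matrix.one_mulVec]
        right_inv := fun x => by simp only [Matrix.mulVec_mulVec, hAB, Matrix.one_mulVec] }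
    rw [← e.tsum_eq, thC]
    refine tsum_congr fun x => ?_
    have h3 : qz A⁻¹ (A *ᵥ x) = qz A x := by
      rw [qz, qz, Matrix.mulVec_mulVec, hBA, Matrix.one_mulVec, dotProduct_comm]
    simp only [gU, Pi.zero_apply, mul_zero, add_zero]
    rw [qf_mR]
    change cexp (_ * (qz A⁻¹ (A *ᵥ x) : ℂ)) = _
    rw [h3]
    congr 2
    field_simp
    simp
  rw [h2, hc1] at h1
  have h5 : (-I * z) ^ (1 / 2 : ℂ) ≠ 0 := by
    rw [Ne, cpow_eq_zero_iff]
    exact fun h => (mul_ne_zero (neg_ne_zero.mpr I_ne_zero) hz0) h.1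
  have h6 : thC A z = ∑' x, gT (mR A) (-I * z) 0 x := by
    simp only [thC, term_eq_gT]
  rw [h6, h1, ofReal_one, one_mul, ← mul_assoc, ← mul_pow, mul_one_div_cancel h5, one_pow,
    one_mul]

theorem thC_I_ne_zero {n : ℕ} {A : Matrix (Fin n) (Fin n) ℤ} (h : PD (mR A)) : thC A I ≠ 0 := by
  have h1 : ∀ x : Fin n → ℤ, cexp (π * I * I * qz A x) = (‖cexp (π * I * I * qz A x)‖ : ℂ) := by
    intro x
    rw [norm_term]
    push_cast
    congr 1
    rw [mul_assoc (π : ℂ), I_mul_I]; simp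
  have h2 := (summable_th h (z := I) (by simp)).norm
  rw [thC, tsum_congr h1, ← ofReal_tsum, ofReal_ne_zero]
  exact (h2.tsum_pos (fun _ => norm_nonneg _) 0 (norm_pos_iff.mpr (Complex.exp_ne_zero _))).ne'

theorem cpow_half_sq (a : ℂ) : a ^ (1 / 2 : ℂ) * a ^ (1 / 2 : ℂ) = a := by
  rw [← sq, one_div]
  exact_mod_cast Complex.cpow_nat_inv_pow a two_ne_zero

/-- The rank of an even unimodular lattice is divisible by `8`. -/
theorem EU.eight_dvd {n : ℕ} {A : Matrix (Fin n) (Fin n) ℤ} (h : EU A) : 8 ∣ n := by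
  have e1 := thC_inv h (z := I + 1) (by simp)
  have e2 := thC_inv h (z := (I - 1) / 2 + 1) (by simp)
  have hI1 : (I + 1 : ℂ) ≠ 0 := by
    intro h0; have := congrArg Complex.re h0; simp at this
  have a1 : (-1 / (I + 1) : ℂ) = (I - 1) / 2 := by
    field_simp; ring_nf; simp; norm_num
  have a2 : (-1 / ((I - 1) / 2 + 1) : ℂ) = I - 1 := by
    have : ((I - 1) / 2 + 1 : ℂ) = (I + 1) / 2 := by ring
    rw [this]; field_simp; ring_nf; simp; norm_num
  have a3 : thC A (I - 1) = thC A I := by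
    rw [← thC_add_one h, sub_add_cancel]
  rw [a1, thC_add_one h] at e1
  rw [a2, thC_add_one h, a3, e1, ← mul_assoc, ← mul_pow] at e2
  have b1 : (-I * ((I - 1) / 2 + 1) : ℂ) = (-I * (I + 1)) * ((1 / 2 : ℝ) : ℂ) := by
    push_cast; ring
  rw [b1, cpow_half_mul (by simp) (by norm_num), mul_right_comm, cpow_half_sq] at e2
  have e4 : (-I * (I + 1) * (√(1 / 2) : ℝ)) ^ n = 1 :=
    mul_right_cancel₀ (thC_I_ne_zero h.pd) (by rw [← e2, one_mul])
  have hs : ((√(1 / 2) : ℝ) : ℂ) ^ 2 = 1 / 2 := by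
    rw [← ofReal_pow, Real.sq_sqrt (by norm_num)]; push_cast; ring
  have h2 : (-I * (I + 1) * (√(1 / 2) : ℝ)) ^ 2 = -I := by
    rw [mul_pow, hs]; ring_nf; simp
  have h4 : (-I * (I + 1) * (√(1 / 2) : ℝ)) ^ 2 ^ 2 = -1 := by
    rw [show 2 ^ 2 = 2 * 2 by norm_num, pow_mul, h2]; simp
  have ho : orderOf (-I * (I + 1) * (√(1 / 2) : ℝ)) = 2 ^ (2 + 1) := by
    refine orderOf_eq_prime_pow ?_ ?_
    · rw [h4]; norm_num
    · rw [pow_succ, pow_mul, h4]; norm_num
  have := orderOf_dvd_of_pow_eq_one e4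
  rwa [ho] at this

theorem thC_inv' {m : ℕ} {A : Matrix (Fin (8 * m)) (Fin (8 * m)) ℤ} (h : EU A) {z : ℂ}
    (hz : 0 < z.im) : thC A (-1 / z) = z ^ (4 * m) * thC A z := by
  rw [thC_inv h hz]
  congr 1
  rw [show 8 * m = 2 * (4 * m) by ring, pow_mul, sq, cpow_half_sq, mul_pow, pow_mul]
  have : (-I) ^ 4 = 1 := by rw [neg_pow]; simp; norm_num
  rw [this, one_pow, one_mul]

/-- number of vectors of norm `m` -/
noncomputable def cnt {n : ℕ} (A : Matrix (Fin n) (Fin n) ℤ) (m : ℤ) : ℕ :=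
  Nat.card {x : Fin n → ℤ // x ⬝ᵥ A *ᵥ x = m}

theorem finite_shell {n : ℕ} {A : Matrix (Fin n) (Fin n) ℤ} (h : PD (mR A)) (m : ℤ) :
    Finite {x : Fin n → ℤ // x ⬝ᵥ A *ᵥ x = m} := by
  have h1 := (summable_th h (z := I) (by simp)).subtype {x | x ⬝ᵥ A *ᵥ x = m}
  by_contra hf
  rw [not_finite_iff_infinite] at hf
  have h2 : Summable (fun _ : {x : Fin n → ℤ // x ⬝ᵥ A *ᵥ x = m} => cexp (π * I * I * m)) := by
    refine h1.congr fun x => ?_
    have : qz A x.1 = m := x.2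
    simp only [Function.comp, this]
  rw [summable_const_iff] at h2
  exact Complex.exp_ne_zero _ h2

theorem EU.qz_nonneg {n : ℕ} {A : Matrix (Fin n) (Fin n) ℤ} (h : EU A) (x : Fin n → ℤ) :
    0 ≤ qz A x := by
  by_cases hx : x = 0
  · subst hx; simp [qz]
  · exact (h.pos x hx).le

theorem EU.cnt_zero {n : ℕ} {A : Matrix (Fin n) (Fin n) ℤ} (h : EU A) : cnt A 0 = 1 := by
  rw [cnt, Nat.card_eq_one_iff_unique]
  refine ⟨⟨fun x y => Subtype.ext ?_⟩, ⟨⟨0, by simp⟩⟩⟩
  have hz : ∀ x : {x : Fin n → ℤ // x ⬝ᵥ A *ᵥ x = 0}, x.1 = 0 := fun x => by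
    by_contra hx
    exact (h.pos x.1 hx).ne' x.2
  rw [hz x, hz y]

theorem hasSum_thC {n : ℕ} {A : Matrix (Fin n) (Fin n) ℤ} (h : EU A) (τ : UpperHalfPlane) :
    HasSum (fun m : ℕ => (cnt A (2 * m) : ℂ) • Function.Periodic.qParam 1 (τ : ℂ) ^ m)
      (thC A τ) := by
  have h1 := (summable_th h.pd (z := τ) τ.im_pos).hasSum.tsum_fiberwise
    (fun x => (qz A x / 2).toNat)
  refine (h1.congr_fun ?_ : _)
  intro m
  have h2 : ∀ x : Fin n → ℤ, (qz A x / 2).toNat = m ↔ qz A x = 2 * m := by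
    intro x
    obtain ⟨k, hk⟩ := even_qz h.symm h.even x
    have := h.qz_nonneg x
    omega
  have h3 : ∀ x : ((fun x => (qz A x / 2).toNat) ⁻¹' {m} : Set (Fin n → ℤ)),
      cexp (π * I * τ * qz A x) = Function.Periodic.qParam 1 (τ : ℂ) ^ m := by
    intro x
    rw [(h2 x).mp x.2, Function.Periodic.qParam, ← Complex.exp_nat_mul]
    congr 1
    push_cast; ring
  rw [tsum_congr h3, tsum_const, cnt, smul_eq_mul, nsmul_eq_mul]
  congr 2
  exact Nat.card_congr (Equiv.subtypeEquivRight fun x => (h2 x).symm)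

theorem differentiableAt_thC {n : ℕ} {A : Matrix (Fin n) (Fin n) ℤ} (h : EU A) {z : ℂ}
    (hz : 0 < z.im) : DifferentiableAt ℂ (thC A) z := by
  have hU : IsOpen {w : ℂ | z.im / 2 < w.im} := isOpen_lt continuous_const Complex.continuous_im
  have hs := (summable_th h.pd (z := I * (z.im / 2 : ℝ)) (by simpa using hz)).norm
  have := differentiableOn_tsum_of_summable_norm hs
    (F := fun (x : Fin n → ℤ) (w : ℂ) => cexp (π * I * w * qz A x))
    (fun x => by fun_prop) hU (fun x w hw => by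
      rw [norm_term, norm_term]
      refine Real.exp_le_exp.mpr ?_
      have h1 : (0 : ℝ) ≤ qz A x := by exact_mod_cast h.qz_nonneg x
      have h2 : (I * (z.im / 2 : ℝ)).im = z.im / 2 := by simp
      rw [h2]
      have h3 : z.im / 2 ≤ w.im := le_of_lt hw
      nlinarith [mul_le_mul_of_nonneg_right h3 (mul_nonneg pi_pos.le h1)])
  exact this.differentiableAt (hU.mem_nhds (by simp only [Set.mem_setOf_eq]; linarith))

open UpperHalfPlane ModularForm MatrixGroups SlashInvariantForm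

theorem th_T {n : ℕ} {A : Matrix (Fin n) (Fin n) ℤ} (h : EU A) (k : ℤ) :
    ((fun τ : ℍ => thC A τ) ∣[k] ModularGroup.T) = fun τ : ℍ => thC A τ := by
  ext z
  rw [SL_slash_apply, modular_T_smul, ModularGroup.denom_apply]
  simp [add_comm (1 : ℂ), thC_add_one h, ModularGroup.T]

theorem th_S {m : ℕ} {A : Matrix (Fin (8 * m)) (Fin (8 * m)) ℤ} (h : EU A) :
    ((fun τ : ℍ => thC A τ) ∣[((4 * m : ℕ) : ℤ)] ModularGroup.S) = fun τ : ℍ => thC A τ := by
  ext z
  suffices thC A (-(↑z)⁻¹) * ((z : ℂ) ^ (4 * m))⁻¹ = thC A z by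
    rw [SL_slash_apply, UpperHalfPlane.modular_S_smul, _root_.zpow_neg, _root_.zpow_natCast,
      ModularGroup.denom_apply]
    simpa [ModularGroup.S]
  have := thC_inv' h (z := z) z.im_pos
  rw [neg_div, one_div] at this
  rw [this]
  field_simp [z.ne_zero]

/-- The theta series of an even unimodular lattice as a modular form. -/
noncomputable def thMF {m : ℕ} {A : Matrix (Fin (8 * m)) (Fin (8 * m)) ℤ} (h : EU A) :
    ModularForm 𝒮ℒ ((4 * m : ℕ) : ℤ) where
  toFun := fun τ : ℍ => thC A τ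
  slash_action_eq' γ hγ := by
    obtain ⟨γ, rfl⟩ := hγ
    exact slash_action_generators_SL2Z (th_S h) (th_T h _) γ
  holo' := by
    rw [UpperHalfPlane.mdifferentiable_iff]
    refine .congr (fun z hz => (differentiableAt_thC h hz).differentiableWithinAt) fun z hz => ?_
    simp [ofComplex_apply_of_im_pos hz]
  bdd_at_cusps' hc := by
    rw [Subgroup.IsArithmetic.isCusp_iff_isCusp_SL2Z] at hc
    rw [OnePoint.isBoundedAt_iff_forall_SL2Z hc]
    intro γ _
    rw [slash_action_generators_SL2Z (th_S h) (th_T h _)]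
    exact isBoundedAtImInfty_of_hasSum_qExpansion one_pos (hasSum_thC h)

theorem thMF_coeff {m : ℕ} {A : Matrix (Fin (8 * m)) (Fin (8 * m)) ℤ} (h : EU A) (j : ℕ) :
    (qExpansion 1 (thMF h)).coeff j = cnt A (2 * j) :=
  (ModularFormClass.qExpansion_coeff_unique one_pos one_mem_strictPeriods_SL (f := thMF h)
    (hasSum_thC h) j).symm

open EisensteinSeries in
theorem E4_coeff : (qExpansion 1 E₄).coeff 0 = 1 ∧ (qExpansion 1 E₄).coeff 1 = 240 ∧
    (qExpansion 1 E₄).coeff 2 = 2160 ∧ (qExpansion 1 E₄).coeff 3 = 6720 ∧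
    (qExpansion 1 E₄).coeff 4 = 17520 := by
  have hb : bernoulli 4 = -1 / 30 := by decide +kernel
  have s2 : ArithmeticFunction.sigma 3 2 = 9 := by decide +kernel
  have s3 : ArithmeticFunction.sigma 3 3 = 28 := by decide +kernel
  have s4 : ArithmeticFunction.sigma 3 4 = 73 := by decide +kernel
  refine ⟨?_, ?_, ?_, ?_, ?_⟩ <;>
    norm_num [E_qExpansion_coeff _ ⟨2, rfl⟩, hb, s2, s3, s4]

open EisensteinSeries in
theorem E6_coeff : (qExpansion 1 E₆).coeff 0 = 1 ∧ (qExpansion 1 E₆).coeff 1 = -504 ∧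
    (qExpansion 1 E₆).coeff 2 = -16632 ∧ (qExpansion 1 E₆).coeff 3 = -122976 ∧
    (qExpansion 1 E₆).coeff 4 = -532728 := by
  have hb : bernoulli 6 = 1 / 42 := by decide +kernel
  have s2 : ArithmeticFunction.sigma 5 2 = 33 := by decide +kernel
  have s3 : ArithmeticFunction.sigma 5 3 = 244 := by decide +kernel
  have s4 : ArithmeticFunction.sigma 5 4 = 1057 := by decide +kernel
  refine ⟨?_, ?_, ?_, ?_, ?_⟩ <;>
    norm_num [E_qExpansion_coeff _ ⟨3, rfl⟩, hb, s2, s3, s4]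

theorem weight12_qExp (f : ModularForm 𝒮ℒ 12) (h0 : (qExpansion 1 f).coeff 0 = 1) :
    ∃ t : ℂ, qExpansion 1 f = qExpansion 1 E₄ * qExpansion 1 E₄ * qExpansion 1 E₄ +
      t • (qExpansion 1 E₄ * qExpansion 1 E₄ * qExpansion 1 E₄ -
        qExpansion 1 E₆ * qExpansion 1 E₆) := by
  obtain ⟨a0, a1, -⟩ := E4_coeff
  obtain ⟨b0, b1, -⟩ := E6_coeff
  set t : ℂ := ((qExpansion 1 f).coeff 1 - 720) / 1728 with ht
  refine ⟨t, ?_⟩
  let P : ModularForm 𝒮ℒ 12 := ModularForm.mcast (by decide) (E₄.pow 3)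
  let Q : ModularForm 𝒮ℒ 12 := ModularForm.mcast (by decide) (E₆.pow 2)
  have hP : qExpansion 1 P = qExpansion 1 E₄ * qExpansion 1 E₄ * qExpansion 1 E₄ := by
    simp only [P, coe_mcast, ModularForm.qExpansion_pow one_pos one_mem_strictPeriods_SL]
    ring
  have hQ : qExpansion 1 Q = qExpansion 1 E₆ * qExpansion 1 E₆ := by
    simp only [Q, coe_mcast, ModularForm.qExpansion_pow one_pos one_mem_strictPeriods_SL]
    ring
  have hg : qExpansion 1 (f - (P + t • (P - Q)) : ModularForm 𝒮ℒ 12) =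
      qExpansion 1 f - (qExpansion 1 P + t • (qExpansion 1 P - qExpansion 1 Q)) := by
    rw [FunLike.coe_sub, ModularForm.qExpansion_sub one_pos one_mem_strictPeriods_SL,
      FunLike.coe_add, ModularForm.qExpansion_add one_pos one_mem_strictPeriods_SL,
      FunLike.coe_smul, ModularForm.qExpansion_smul one_pos one_mem_strictPeriods_SL,
      FunLike.coe_sub, ModularForm.qExpansion_sub one_pos one_mem_strictPeriods_SL]
  have hz : (f - (P + t • (P - Q)) : ModularForm 𝒮ℒ 12) = 0 := by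
    apply sturm_bound_levelOne
    refine lt_of_lt_of_le ?_ (PowerSeries.nat_le_order _ 2 ?_)
    · exact_mod_cast (by decide : Int.toNat 12 / 12 < 2)
    · intro i hi
      rw [hg, hP, hQ]
      interval_cases i
      · simp only [map_sub, map_add, PowerSeries.coeff_smul, PowerSeries.coeff_mul,
          Finset.Nat.antidiagonal_zero, Finset.sum_singleton, a0, b0, h0]
        simp
      · simp only [map_sub, map_add, PowerSeries.coeff_smul, PowerSeries.coeff_mul,
          Finset.Nat.antidiagonal_succ, Finset.Nat.antidiagonal_zero, Finset.sum_cons,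
          Finset.sum_map, Finset.sum_singleton, Finset.map_singleton]
        simp only [Function.Embedding.coe_prodMap, Function.Embedding.coeFn_mk, Prod.map_fst,
          Prod.map_snd, Function.Embedding.coe_refl, id, Nat.succ_eq_add_one, zero_add,
          Finset.Nat.antidiagonal_succ, Finset.Nat.antidiagonal_zero, Finset.sum_cons,
          Finset.sum_singleton, Finset.map_singleton, a0, a1, b0, b1, ht, smul_eq_mul]
        ring
  rw [hz] at hg
  rw [← hP, ← hQ]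
  have : qExpansion 1 (0 : ModularForm 𝒮ℒ 12) = 0 := qExpansion_zero 1
  rw [this] at hg
  exact (sub_eq_zero.mp hg.symm)

theorem ps_coeff1 (f g : PowerSeries ℂ) : (f * g).coeff 1 =
    f.coeff 0 * g.coeff 1 + f.coeff 1 * g.coeff 0 := by
  simp [PowerSeries.coeff_mul, Finset.Nat.antidiagonal_succ]

theorem ps_coeff0 (f g : PowerSeries ℂ) : (f * g).coeff 0 = f.coeff 0 * g.coeff 0 := by
  simp

theorem ps_coeff2 (f g : PowerSeries ℂ) : (f * g).coeff 2 =
    f.coeff 0 * g.coeff 2 + f.coeff 1 * g.coeff 1 + f.coeff 2 * g.coeff 0 := by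
  simp [PowerSeries.coeff_mul, Finset.Nat.antidiagonal_succ, add_assoc]

theorem ps_coeff3 (f g : PowerSeries ℂ) : (f * g).coeff 3 =
    f.coeff 0 * g.coeff 3 + f.coeff 1 * g.coeff 2 + f.coeff 2 * g.coeff 1 +
      f.coeff 3 * g.coeff 0 := by
  simp [PowerSeries.coeff_mul, Finset.Nat.antidiagonal_succ, add_assoc]

theorem ps_coeff4 (f g : PowerSeries ℂ) : (f * g).coeff 4 =
    f.coeff 0 * g.coeff 4 + f.coeff 1 * g.coeff 3 + f.coeff 2 * g.coeff 2 +
      f.coeff 3 * g.coeff 1 + f.coeff 4 * g.coeff 0 := by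
  simp [PowerSeries.coeff_mul, Finset.Nat.antidiagonal_succ, add_assoc]

theorem EU.rank24_aux {n : ℕ} {A : Matrix (Fin n) (Fin n) ℤ} (hn : n = 24) (h : EU A) :
    (cnt A 4 : ℤ) = 196560 - 24 * cnt A 2 ∧ (cnt A 6 : ℤ) = 16773120 + 252 * cnt A 2 ∧
      (cnt A 8 : ℤ) = 398034000 - 1472 * cnt A 2 := by
  obtain ⟨m, rfl⟩ := h.eight_dvd
  have hm : ((4 * m : ℕ) : ℤ) = 12 := by omega
  obtain ⟨f, hc⟩ : ∃ f : ModularForm 𝒮ℒ 12, ∀ j : ℕ,
      (qExpansion 1 f).coeff j = cnt A (2 * j) :=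
    ⟨ModularForm.mcast hm (thMF h), thMF_coeff h⟩
  obtain ⟨t, ht⟩ := weight12_qExp f (by
    have := hc 0
    simp only [Nat.cast_zero, mul_zero, h.cnt_zero, Nat.cast_one] at this
    exact this)
  obtain ⟨a0, a1, a2, a3, a4⟩ := E4_coeff
  obtain ⟨b0, b1, b2, b3, b4⟩ := E6_coeff
  have c1 := hc 1
  have c2 := hc 2
  have c3 := hc 3
  have c4 := hc 4
  rw [ht] at c1 c2 c3 c4
  simp only [map_add, map_sub, PowerSeries.coeff_smul, ps_coeff0, ps_coeff1, ps_coeff2, ps_coeff3,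
    ps_coeff4, a0, a1, a2, a3, a4, b0, b1, b2, b3, b4, smul_eq_mul] at c1 c2 c3 c4
  norm_num at c1 c2 c3 c4
  refine ⟨Int.cast_injective (α := ℂ) ?_, Int.cast_injective (α := ℂ) ?_,
    Int.cast_injective (α := ℂ) ?_⟩
  · simp only [Int.cast_sub, Int.cast_mul, Int.cast_natCast, Int.cast_ofNat]
    linear_combination -c2 - 24 * c1
  · simp only [Int.cast_add, Int.cast_mul, Int.cast_natCast, Int.cast_ofNat]
    linear_combination -c3 + 252 * c1
  · simp only [Int.cast_sub, Int.cast_mul, Int.cast_natCast, Int.cast_ofNat]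
    linear_combination -c4 - 1472 * c1

/-- The numbers of short vectors of an even unimodular lattice of rank `24`. -/
theorem EU.rank24 {A : Matrix (Fin 24) (Fin 24) ℤ} (h : EU A) :
    (cnt A 4 : ℤ) = 196560 - 24 * cnt A 2 ∧ (cnt A 6 : ℤ) = 16773120 + 252 * cnt A 2 ∧
      (cnt A 8 : ℤ) = 398034000 - 1472 * cnt A 2 := EU.rank24_aux rfl h

/-- rootless case -/
theorem EU.rank24_rootless {A : Matrix (Fin 24) (Fin 24) ℤ} (h : EU A) (h2 : cnt A 2 = 0) :
    cnt A 4 = 196560 ∧ cnt A 6 = 16773120 ∧ cnt A 8 = 398034000 := by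
  have := h.rank24
  rw [h2] at this
  omega

end Cfsg.Agent.Th23
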