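import Mathlib

/-!
# Poisson summation for Gaussians on `ℤ^n`
-/

namespace Cfsg.Agent.Th23

open Complex Real Finset

/-- complex quadratic form of a real matrix -/
noncomputable def qf {n : ℕ} (A : Matrix (Fin n) (Fin n) ℝ) (x : Fin n → ℂ) : ℂ :=
  ∑ i, ∑ j, (A i j : ℂ) * x i * x j

/-- real quadratic form of a real matrix -/
def qr {n : ℕ} (A : Matrix (Fin n) (Fin n) ℝ) (x : Fin n → ℝ) : ℝ :=
  ∑ i, ∑ j, A i j * x i * x j

/-- positive definiteness -/
def PD {n : ℕ} (A : Matrix (Fin n) (Fin n) ℝ) : Prop :=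
  ∀ x : Fin n → ℝ, x ≠ 0 → 0 < qr A x

theorem qf_ofReal {n : ℕ} (A : Matrix (Fin n) (Fin n) ℝ) (x : Fin n → ℝ) :
    qf A (fun i => (x i : ℂ)) = (qr A x : ℂ) := by
  simp [qf, qr]

theorem qf_int {n : ℕ} (A : Matrix (Fin n) (Fin n) ℝ) (x : Fin n → ℤ) :
    qf A (fun i => (x i : ℂ)) = (qr A (fun i => (x i : ℝ)) : ℂ) := by
  simp [qf, qr]

theorem qr_smul {n : ℕ} (A : Matrix (Fin n) (Fin n) ℝ) (t : ℝ) (x : Fin n → ℝ) :
    qr A (t • x) = t ^ 2 * qr A x := by
  simp only [qr, Pi.smul_apply, smul_eq_mul, Finset.mul_sum]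
  refine Finset.sum_congr rfl fun i _ => Finset.sum_congr rfl fun j _ => by ring

theorem PD.exists_eps {n : ℕ} {A : Matrix (Fin n) (Fin n) ℝ} (hA : PD A) :
    ∃ ε : ℝ, 0 < ε ∧ ∀ x : Fin n → ℝ, ε * ∑ i, x i ^ 2 ≤ qr A x := by
  rcases Nat.eq_zero_or_pos n with rfl | hn
  · exact ⟨1, one_pos, fun x => by simp [qr]⟩
  haveI : Nonempty (Fin n) := ⟨⟨0, hn⟩⟩
  have hc : Continuous (qr A) := by unfold qr; fun_prop
  have hne : (Metric.sphere (0 : Fin n → ℝ) 1).Nonempty := NormedSpace.sphere_nonempty.mpr zero_le_one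
  obtain ⟨x0, hx0, hmin⟩ := (isCompact_sphere (0 : Fin n → ℝ) 1).exists_isMinOn hne hc.continuousOn
  have hx0' : x0 ≠ 0 := by
    rintro rfl
    simp at hx0
  have hpos := hA x0 hx0'
  refine ⟨qr A x0 / n, div_pos hpos (by exact_mod_cast hn), fun x => ?_⟩
  by_cases hx : x = 0
  · subst hx; simp [qr]
  have hn0 : 0 < ‖x‖ := norm_pos_iff.mpr hx
  have h1 : (‖x‖⁻¹ • x) ∈ Metric.sphere (0 : Fin n → ℝ) 1 := by
    simp [norm_smul, hn0.ne']
  have h2 : qr A x0 ≤ qr A (‖x‖⁻¹ • x) := hmin h1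
  rw [qr_smul] at h2
  have h3 : ∑ i, x i ^ 2 ≤ n * ‖x‖ ^ 2 := by
    calc ∑ i, x i ^ 2 ≤ ∑ _i : Fin n, ‖x‖ ^ 2 := by
          refine Finset.sum_le_sum fun i _ => ?_
          have := norm_le_pi_norm x i
          rw [Real.norm_eq_abs] at this
          rw [← sq_abs]
          exact pow_le_pow_left₀ (abs_nonneg _) this 2
      _ = n * ‖x‖ ^ 2 := by simp
  have hn' : (0 : ℝ) < n := by exact_mod_cast hn
  calc qr A x0 / n * ∑ i, x i ^ 2 ≤ qr A x0 / n * (n * ‖x‖ ^ 2) :=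
        mul_le_mul_of_nonneg_left h3 (div_pos hpos hn').le
    _ = qr A x0 * ‖x‖ ^ 2 := by field_simp
    _ ≤ (‖x‖⁻¹ ^ 2 * qr A x) * ‖x‖ ^ 2 := mul_le_mul_of_nonneg_right h2 (by positivity)
    _ = qr A x := by field_simp

theorem summable_gauss1 {c : ℝ} (hc : 0 < c) (d : ℝ) :
    Summable (fun k : ℤ => rexp (-c * (k : ℝ) ^ 2 + d * k)) := by
  have h := (summable_jacobiTheta₂_term_iff (-I * d / (2 * π)) (I * c / π)).mpr (by
    have : (I * c / π : ℂ) = I * ((c / π : ℝ) : ℂ) := by push_cast; ring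
    rw [this]; simp only [mul_im, I_re, ofReal_im, mul_zero, I_im, ofReal_re, one_mul, zero_add]
    exact div_pos hc pi_pos)
  have h' := h.norm
  refine h'.congr fun k => ?_
  have hpi : (π : ℂ) ≠ 0 := ofReal_ne_zero.mpr pi_ne_zero
  have : (2 * π * I * k * (-I * d / (2 * π)) + π * I * k ^ 2 * (I * c / π) : ℂ) =
      ((-c * (k : ℝ) ^ 2 + d * k : ℝ) : ℂ) := by
    push_cast
    field_simp
    ring_nf
    simp only [I_sq]
    ring
  rw [jacobiTheta₂_term, this, Complex.norm_exp, ofReal_re]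

theorem summable_pi_prod : ∀ {n : ℕ} (f : Fin n → ℤ → ℝ), (∀ i k, 0 ≤ f i k) →
    (∀ i, Summable (f i)) → Summable (fun x : Fin n → ℤ => ∏ i, f i (x i))
  | 0, f, _, _ => by exact Summable.of_finite
  | n + 1, f, h0, hs => by
    have ih := summable_pi_prod (fun i : Fin n => f i.succ) (fun i k => h0 _ _) (fun i => hs _)
    have h := (hs 0).mul_of_nonneg ih (fun k => h0 0 k)
      (fun x => Finset.prod_nonneg fun i _ => h0 _ _)
    rw [← (Fin.consEquiv fun _ : Fin (n + 1) => ℤ).summable_iff]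
    refine h.congr fun p => ?_
    simp [Fin.prod_univ_succ, Fin.consEquiv]

/-- the general Gaussian term -/
noncomputable def gT {n : ℕ} (A : Matrix (Fin n) (Fin n) ℝ) (a : ℂ) (b : Fin n → ℂ)
    (x : Fin n → ℤ) : ℂ :=
  cexp (-π * a * qf A (fun i => (x i : ℂ)) + 2 * π * ∑ i, b i * x i)

theorem norm_gT {n : ℕ} (A : Matrix (Fin n) (Fin n) ℝ) (a : ℂ) (b : Fin n → ℂ)
    (x : Fin n → ℤ) : ‖gT A a b x‖ =
      rexp (-π * a.re * qr A (fun i => (x i : ℝ)) + 2 * π * ∑ i, (b i).re * x i) := by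
  rw [gT, Complex.norm_exp, qf_int]
  congr 1
  simp [Complex.re_sum]

theorem summable_norm_gT {n : ℕ} {A : Matrix (Fin n) (Fin n) ℝ} (hA : PD A) {a : ℂ}
    (ha : 0 < a.re) (b : Fin n → ℂ) : Summable (fun x => ‖gT A a b x‖) := by
  obtain ⟨ε, hε, h⟩ := hA.exists_eps
  have hs := summable_pi_prod (n := n)
    (fun i k => rexp (-(π * a.re * ε) * (k : ℝ) ^ 2 + (2 * π * (b i).re) * k))
    (fun i k => (Real.exp_pos _).le)
    (fun i => summable_gauss1 (by positivity) _)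
  refine Summable.of_nonneg_of_le (fun x => norm_nonneg _) (fun x => ?_) hs
  rw [norm_gT, ← Real.exp_sum]
  refine Real.exp_le_exp.mpr ?_
  rw [Finset.sum_add_distrib, ← Finset.mul_sum, Finset.mul_sum _ _ (2 * π)]
  have h1 := h (fun i => (x i : ℝ))
  have h2 : 0 < π * a.re := by positivity
  have h3 : ∑ i, 2 * π * ((b i).re * x i) = ∑ i, 2 * π * (b i).re * x i :=
    Finset.sum_congr rfl fun i _ => by ring
  rw [h3]
  nlinarith [mul_le_mul_of_nonneg_left h1 h2.le]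

theorem summable_gT {n : ℕ} {A : Matrix (Fin n) (Fin n) ℝ} (hA : PD A) {a : ℂ}
    (ha : 0 < a.re) (b : Fin n → ℂ) : Summable (gT A a b) :=
  (summable_norm_gT hA ha b).of_norm

/-- the dual Gaussian term -/
noncomputable def gU {n : ℕ} (B : Matrix (Fin n) (Fin n) ℝ) (a : ℂ) (b : Fin n → ℂ)
    (y : Fin n → ℤ) : ℂ :=
  cexp (-π / a * qf B (fun i => (y i : ℂ) + I * b i))

theorem inv_re_pos {a : ℂ} (ha : 0 < a.re) : 0 < (a⁻¹).re := by
  rw [inv_re]
  refine div_pos ha (normSq_pos.mpr ?_)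
  rintro rfl
  simp at ha

theorem qf_add {n : ℕ} (B : Matrix (Fin n) (Fin n) ℝ) (x z : Fin n → ℂ) :
    qf B (fun i => x i + z i) =
      qf B x + ∑ i, (∑ j, ((B i j : ℂ) + B j i) * z j) * x i + qf B z := by
  have h1 : ∑ i, (∑ j, ((B i j : ℂ) + B j i) * z j) * x i =
      ∑ i, ∑ j, (B i j : ℂ) * x i * z j + ∑ i, ∑ j, (B i j : ℂ) * z i * x j := by
    rw [Finset.sum_comm (f := fun i j => (B i j : ℂ) * z i * x j), ← Finset.sum_add_distrib]
    refine Finset.sum_congr rfl fun i _ => ?_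
    rw [Finset.sum_mul, ← Finset.sum_add_distrib]
    exact Finset.sum_congr rfl fun j _ => by ring
  rw [h1]
  simp only [qf, ← Finset.sum_add_distrib]
  exact Finset.sum_congr rfl fun i _ => Finset.sum_congr rfl fun j _ => by ring

theorem summable_gU {n : ℕ} {B : Matrix (Fin n) (Fin n) ℝ} (hB : PD B) {a : ℂ}
    (ha : 0 < a.re) (b : Fin n → ℂ) : Summable (gU B a b) := by
  have h := (summable_gT hB (inv_re_pos ha)
    (fun i => -(a⁻¹) / 2 * ∑ j, ((B i j : ℂ) + B j i) * (I * b j))).mul_right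
    (cexp (-π / a * qf B (fun i => I * b i)))
  refine h.congr fun y => ?_
  rw [gT, gU, ← Complex.exp_add, qf_add]
  congr 1
  have : ∑ i, -(a⁻¹) / 2 * (∑ j, ((B i j : ℂ) + B j i) * (I * b j)) * (y i : ℂ) =
      -(a⁻¹) / 2 * ∑ i, (∑ j, ((B i j : ℂ) + B j i) * (I * b j)) * (y i : ℂ) := by
    rw [Finset.mul_sum]
    exact Finset.sum_congr rfl fun i _ => by ring
  rw [this]
  ring

/-- lower right block -/
def low {n : ℕ} (A : Matrix (Fin (n + 1)) (Fin (n + 1)) ℝ) : Matrix (Fin n) (Fin n) ℝ :=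
  fun i j => A i.succ j.succ

/-- Schur complement -/
noncomputable def sch {n : ℕ} (A : Matrix (Fin (n + 1)) (Fin (n + 1)) ℝ) :
    Matrix (Fin n) (Fin n) ℝ :=
  fun i j => A i.succ j.succ - A i.succ 0 * A j.succ 0 / A 0 0

theorem qf_cons {n : ℕ} {A : Matrix (Fin (n + 1)) (Fin (n + 1)) ℝ} (hA : A.IsSymm)
    (x0 : ℂ) (x : Fin n → ℂ) :
    qf A (Fin.cons x0 x) =
      A 0 0 * x0 ^ 2 + 2 * x0 * (∑ i, (A i.succ 0 : ℂ) * x i) + qf (low A) x := by
  simp only [qf, Fin.sum_univ_succ, Fin.cons_zero, Fin.cons_succ, low, Finset.sum_add_distrib]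
  have h1 : ∑ i : Fin n, (A 0 i.succ : ℂ) * x0 * x i = x0 * ∑ i, (A i.succ 0 : ℂ) * x i := by
    rw [Finset.mul_sum]
    refine Finset.sum_congr rfl fun i _ => ?_
    rw [hA.apply i.succ 0]; ring
  have h2 : ∑ i : Fin n, (A i.succ 0 : ℂ) * x i * x0 = x0 * ∑ i, (A i.succ 0 : ℂ) * x i := by
    rw [Finset.mul_sum]
    exact Finset.sum_congr rfl fun i _ => by ring
  rw [h1, h2]; ring

theorem qf_sch {n : ℕ} (A : Matrix (Fin (n + 1)) (Fin (n + 1)) ℝ) (x : Fin n → ℂ) :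
    qf (sch A) x = qf (low A) x - (∑ i, (A i.succ 0 : ℂ) * x i) ^ 2 / A 0 0 := by
  rw [sq, Finset.sum_mul_sum, Finset.sum_div]
  simp only [qf, sch, low, ← Finset.sum_sub_distrib, Finset.sum_div]
  refine Finset.sum_congr rfl fun i _ => Finset.sum_congr rfl fun j _ => ?_
  push_cast; ring

theorem cons_ofReal {n : ℕ} (t : ℝ) (x : Fin n → ℝ) :
    (fun i => ((Fin.cons t x : Fin (n + 1) → ℝ) i : ℂ)) =
      (Fin.cons (t : ℂ) (fun i => (x i : ℂ)) : Fin (n + 1) → ℂ) := by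
  funext i
  refine Fin.cases ?_ (fun j => ?_) i <;> simp

theorem cons_int {n : ℕ} (t : ℤ) (x : Fin n → ℤ) :
    (fun i => ((Fin.cons t x : Fin (n + 1) → ℤ) i : ℂ)) =
      (Fin.cons (t : ℂ) (fun i => (x i : ℂ)) : Fin (n + 1) → ℂ) := by
  funext i
  refine Fin.cases ?_ (fun j => ?_) i <;> simp

theorem PD.pos00 {n : ℕ} {A : Matrix (Fin (n + 1)) (Fin (n + 1)) ℝ} (hA : PD A) : 0 < A 0 0 := by
  have := hA (Fin.cons 1 0) (by
    intro h
    have := congrFun h 0
    simp at this)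
  simpa [qr, Fin.sum_univ_succ] using this

theorem PD.sch {n : ℕ} {A : Matrix (Fin (n + 1)) (Fin (n + 1)) ℝ} (hA : PD A) (hs : A.IsSymm) :
    PD (sch A) := by
  intro x hx
  have h0 := hA.pos00
  have h0' : (A 0 0 : ℂ) ≠ 0 := ofReal_ne_zero.mpr h0.ne'
  have := hA (Fin.cons (-(∑ i, A i.succ 0 * x i) / A 0 0) x) (by
    intro h
    apply hx
    funext i
    simpa using congrFun h i.succ)
  have e : qr A (Fin.cons (-(∑ i, A i.succ 0 * x i) / A 0 0) x) = qr (Th23.sch A) x := by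
    apply ofReal_injective
    rw [← qf_ofReal, ← qf_ofReal, cons_ofReal, qf_cons hs, qf_sch]
    push_cast
    field_simp
    ring
  rwa [e] at this

theorem sch_symm {n : ℕ} {A : Matrix (Fin (n + 1)) (Fin (n + 1)) ℝ} (hs : A.IsSymm) :
    (sch A).IsSymm := by
  refine Matrix.IsSymm.ext fun i j => ?_
  simp only [sch]
  rw [hs.apply i.succ j.succ]; ring

theorem low_symm {n : ℕ} {A : Matrix (Fin (n + 1)) (Fin (n + 1)) ℝ} (hs : A.IsSymm) :
    (low A).IsSymm := by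
  refine Matrix.IsSymm.ext fun i j => ?_
  simp only [low]
  rw [hs.apply i.succ j.succ]

section inv
variable {n : ℕ} {A B : Matrix (Fin (n + 1)) (Fin (n + 1)) ℝ}

theorem row0 (hs : A.IsSymm) (hAB : A * B = 1) (j : Fin n) :
    A 0 0 * B 0 j.succ + ∑ k : Fin n, A k.succ 0 * B k.succ j.succ = 0 := by
  have := congrFun (congrFun hAB 0) j.succ
  rw [Matrix.mul_apply, Fin.sum_univ_succ, Matrix.one_apply_ne (Fin.succ_ne_zero j).symm] at this
  rw [← this]
  congr 1
  exact Finset.sum_congr rfl fun k _ => by rw [hs.apply 0 k.succ]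

theorem row00 (hs : A.IsSymm) (hAB : A * B = 1) :
    A 0 0 * B 0 0 + ∑ k : Fin n, A k.succ 0 * B k.succ 0 = 1 := by
  have := congrFun (congrFun hAB 0) 0
  rw [Matrix.mul_apply, Fin.sum_univ_succ, Matrix.one_apply_eq] at this
  rw [← this]
  congr 1
  exact Finset.sum_congr rfl fun k _ => by rw [hs.apply 0 k.succ]

theorem sch_mul_low (hs : A.IsSymm) (h0 : A 0 0 ≠ 0) (hAB : A * B = 1) :
    sch A * low B = 1 := by
  ext i j
  have h1 := congrFun (congrFun hAB i.succ) j.succ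
  rw [Matrix.mul_apply, Fin.sum_univ_succ] at h1
  have h2 := row0 hs hAB j
  have h3 : (1 : Matrix (Fin (n + 1)) (Fin (n + 1)) ℝ) i.succ j.succ =
      (1 : Matrix (Fin n) (Fin n) ℝ) i j := by
    simp [Matrix.one_apply]
  rw [← h3, ← h1, Matrix.mul_apply]
  simp only [sch, low, sub_mul, Finset.sum_sub_distrib]
  have h4 : ∑ k : Fin n, A i.succ 0 * A k.succ 0 / A 0 0 * B k.succ j.succ =
      A i.succ 0 / A 0 0 * ∑ k : Fin n, A k.succ 0 * B k.succ j.succ := by
    rw [Finset.mul_sum]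
    exact Finset.sum_congr rfl fun k _ => by ring
  rw [h4, show ∑ k : Fin n, A k.succ 0 * B k.succ j.succ = -(A 0 0 * B 0 j.succ) by linarith]
  field_simp
  ring

theorem qf_inv_cons (hs : A.IsSymm) (hsB : B.IsSymm) (h0 : A 0 0 ≠ 0) (hAB : A * B = 1)
    (w0 : ℂ) (w : Fin n → ℂ) :
    qf B (Fin.cons w0 w) =
      w0 ^ 2 / A 0 0 + qf (low B) (fun i => w i + -(w0 * A i.succ 0 / A 0 0)) := by
  have h0' : (A 0 0 : ℂ) ≠ 0 := ofReal_ne_zero.mpr h0
  rw [qf_cons hsB, qf_add]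
  have hr : ∀ j : Fin n, ∑ k : Fin n, (A k.succ 0 : ℂ) * B k.succ j.succ =
      -((A 0 0 : ℂ) * B j.succ 0) := by
    intro j
    have := row0 hs hAB j
    rw [hsB.apply j.succ 0] at this
    have h := congrArg (fun t : ℝ => (t : ℂ)) this
    simp only [ofReal_add, ofReal_mul, ofReal_sum, ofReal_zero] at h
    linear_combination h
  have h00 : (A 0 0 : ℂ) * B 0 0 + ∑ k : Fin n, (A k.succ 0 : ℂ) * B k.succ 0 = 1 := by
    have h := congrArg (fun t : ℝ => (t : ℂ)) (row00 hs hAB)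
    simpa only [ofReal_add, ofReal_mul, ofReal_sum, ofReal_one] using h
  have h1 : ∀ i : Fin n, ∑ j : Fin n, ((low B i j : ℂ) + low B j i) *
      -(w0 * A j.succ 0 / A 0 0) = 2 * w0 * B i.succ 0 := by
    intro i
    have : ∑ j : Fin n, ((low B i j : ℂ) + low B j i) * -(w0 * A j.succ 0 / A 0 0) =
        -(2 * w0 / A 0 0) * ∑ k : Fin n, (A k.succ 0 : ℂ) * B k.succ i.succ := by
      rw [Finset.mul_sum]
      refine Finset.sum_congr rfl fun k _ => ?_
      simp only [low]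
      rw [hsB.apply k.succ i.succ]; ring
    rw [this, hr]
    field_simp
  have h2 : qf (low B) (fun i => -(w0 * A i.succ 0 / A 0 0)) =
      -(w0 ^ 2 / A 0 0) * ∑ k : Fin n, (A k.succ 0 : ℂ) * B k.succ 0 := by
    rw [qf, Finset.sum_comm, Finset.mul_sum]
    refine Finset.sum_congr rfl fun j _ => ?_
    have : ∑ i : Fin n, (low B i j : ℂ) * -(w0 * A i.succ 0 / A 0 0) *
        -(w0 * A j.succ 0 / A 0 0) = (w0 ^ 2 * A j.succ 0 / A 0 0 ^ 2) *
          ∑ k : Fin n, (A k.succ 0 : ℂ) * B k.succ j.succ := by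
      rw [Finset.mul_sum]
      refine Finset.sum_congr rfl fun k _ => ?_
      simp only [low]; ring
    rw [this, hr]
    field_simp
  simp only [h1]
  rw [h2, show ∑ k : Fin n, (A k.succ 0 : ℂ) * B k.succ 0 = 1 - A 0 0 * B 0 0 by
    linear_combination h00]
  have h3 : ∑ i : Fin n, 2 * w0 * (B i.succ 0 : ℂ) * w i =
      2 * w0 * ∑ i : Fin n, (B i.succ 0 : ℂ) * w i := by
    rw [Finset.mul_sum]
    exact Finset.sum_congr rfl fun k _ => by ring
  rw [h3]
  field_simp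
  ring

end inv

theorem PD.inv {n : ℕ} {A B : Matrix (Fin n) (Fin n) ℝ} (hA : PD A) (hsB : B.IsSymm)
    (hAB : A * B = 1) : PD B := by
  intro y hy
  have hq : ∀ (M : Matrix (Fin n) (Fin n) ℝ) (x : Fin n → ℝ), qr M x = x ⬝ᵥ M.mulVec x := by
    intro M x
    simp only [qr, dotProduct, Matrix.mulVec, Finset.mul_sum]
    exact Finset.sum_congr rfl fun i _ => Finset.sum_congr rfl fun j _ => by ring
  have h1 : A.mulVec (B.mulVec y) = y := by rw [Matrix.mulVec_mulVec, hAB, Matrix.one_mulVec]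
  have := hA (B.mulVec y) (by
    intro h
    apply hy
    rw [← h1, h, Matrix.mulVec_zero])
  rw [hq, h1, dotProduct_comm] at this
  rwa [hq]

theorem cpow_half_mul {a : ℂ} (ha : 0 < a.re) {r : ℝ} (hr : 0 < r) :
    (a * r) ^ (1 / 2 : ℂ) = a ^ (1 / 2 : ℂ) * (√r : ℝ) := by
  have ha0 : a ≠ 0 := by rintro rfl; simp at ha
  have hr0 : (r : ℂ) ≠ 0 := ofReal_ne_zero.mpr hr.ne'
  rw [cpow_def_of_ne_zero (mul_ne_zero ha0 hr0), cpow_def_of_ne_zero ha0,
    log_mul_ofReal r hr a ha0, add_mul, Complex.exp_add, mul_comm]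
  congr 1
  rw [Real.sqrt_eq_rpow, Real.rpow_def_of_pos hr]
  push_cast
  rfl

theorem det_sch {n : ℕ} {A : Matrix (Fin (n + 1)) (Fin (n + 1)) ℝ} (hs : A.IsSymm)
    (h0 : A 0 0 ≠ 0) : A.det = A 0 0 * (sch A).det := by
  let M : Matrix (Fin (n + 1)) (Fin (n + 1)) ℝ :=
    fun i j => Fin.cases (A 0 j) (fun i' => A i'.succ j - A i'.succ 0 / A 0 0 * A 0 j) i
  have h1 : A.det = M.det := by
    refine Matrix.det_eq_of_forall_row_eq_smul_add_const
      (Fin.cases 0 (fun i' => A i'.succ 0 / A 0 0)) 0 rfl ?_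
    intro i j
    refine Fin.cases ?_ (fun i' => ?_) i <;> simp [M]
  rw [h1, Matrix.det_succ_column_zero, Fin.sum_univ_succ]
  have h2 : ∀ i : Fin n, M i.succ 0 = 0 := by
    intro i
    simp only [M, Fin.cases_succ]
    field_simp
    ring
  simp only [h2, mul_zero, zero_mul, Finset.sum_const_zero, add_zero]
  have h3 : M.submatrix (Fin.succAbove 0) Fin.succ = sch A := by
    ext i j
    show A i.succ j.succ - A i.succ 0 / A 0 0 * A 0 j.succ =
      A i.succ j.succ - A i.succ 0 * A j.succ 0 / A 0 0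
    rw [hs.apply j.succ 0]; ring
  rw [h3]
  simp [M]

/-- Poisson summation for Gaussians on `ℤ^n`. -/
theorem poisson : ∀ {n : ℕ} (A B : Matrix (Fin n) (Fin n) ℝ), A.IsSymm → B.IsSymm → PD A →
    A * B = 1 → ∃ c : ℝ, 0 < c ∧ c ^ 2 * A.det = 1 ∧ ∀ (a : ℂ), 0 < a.re → ∀ b : Fin n → ℂ,
      ∑' x, gT A a b x = c * (1 / a ^ (1 / 2 : ℂ)) ^ n * ∑' y, gU B a b y
  | 0, A, B, _, _, _, _ => by
    refine ⟨1, one_pos, by simp, fun a _ b => ?_⟩
    simp [gT, gU, qf]
  | n + 1, A, B, hs, hsB, hA, hAB => by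
    have h0 := hA.pos00
    have h0' : (A 0 0 : ℂ) ≠ 0 := ofReal_ne_zero.mpr h0.ne'
    have hS := hA.sch hs
    obtain ⟨c, hc, hcd, ih⟩ := poisson (sch A) (low B) (sch_symm hs) (low_symm hsB) hS
      (sch_mul_low hs h0.ne' hAB)
    have hsq : 0 < √(A 0 0) := Real.sqrt_pos.mpr h0
    refine ⟨c / √(A 0 0), div_pos hc hsq, ?_, fun a ha b => ?_⟩
    · rw [det_sch hs h0.ne', div_pow, Real.sq_sqrt h0.le]
      field_simp
      exact hcd
    have ha0 : a ≠ 0 := by rintro rfl; simp at ha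
    have haα : 0 < (a * A 0 0).re := by
      rw [mul_comm, re_ofReal_mul]; exact mul_pos h0 ha
    -- data
    set E : ℤ → ℂ := fun y0 => cexp (-π / (a * A 0 0) * (y0 + I * b 0) ^ 2) with hE
    set b2 : ℤ → Fin n → ℂ :=
      fun y0 i => b i.succ + I * (y0 + I * b 0) * A i.succ 0 / A 0 0 with hb2
    set K : ℂ := 1 / (a * A 0 0) ^ (1 / 2 : ℂ) with hK
    -- step 1 : split the sum
    have hsum := summable_gT hA ha b
    rw [← (Fin.consEquiv fun _ : Fin (n + 1) => ℤ).summable_iff] at hsum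
    rw [← (Fin.consEquiv fun _ : Fin (n + 1) => ℤ).tsum_eq]
    have e1 : ∑' p : ℤ × (Fin n → ℤ), gT A a b ((Fin.consEquiv fun _ : Fin (n + 1) => ℤ) p) =
        ∑' x : Fin n → ℤ, ∑' x0 : ℤ, gT A a b (Fin.cons x0 x) := by
      rw [Summable.tsum_comm (f := fun (x0 : ℤ) (x : Fin n → ℤ) => gT A a b (Fin.cons x0 x)) hsum]
      exact hsum.tsum_prod
    rw [e1]
    -- step 2 : Poisson in the first variable
    have e2 : ∀ x : Fin n → ℤ, ∑' x0 : ℤ, gT A a b (Fin.cons x0 x) =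
        K * ∑' y0 : ℤ, E y0 * gT (sch A) a (b2 y0) x := by
      intro x
      set l : ℂ := ∑ i, (A i.succ 0 : ℂ) * x i with hl
      set R : ℂ := cexp (-π * a * qf (low A) (fun i => (x i : ℂ)) +
        2 * π * ∑ i, b i.succ * x i) with hR
      have t1 : ∀ x0 : ℤ, gT A a b (Fin.cons x0 x) =
          cexp (-π * (a * A 0 0) * x0 ^ 2 + 2 * π * (b 0 - a * l) * x0) * R := by
        intro x0
        rw [gT, cons_int, qf_cons hs, hR, ← Complex.exp_add, Fin.sum_univ_succ]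
        simp only [Fin.cons_zero, Fin.cons_succ]
        congr 1
        ring
      simp only [t1]
      rw [tsum_mul_right, Complex.tsum_exp_neg_quadratic haα, mul_assoc, ← tsum_mul_right]
      congr 1
      refine tsum_congr fun y0 => ?_
      rw [hR, hE, gT, ← Complex.exp_add, ← Complex.exp_add, qf_sch]
      congr 1
      have t2 : ∑ i, b2 y0 i * (x i : ℂ) =
          ∑ i, b i.succ * x i + I * (y0 + I * b 0) / A 0 0 * l := by
        rw [hl, Finset.mul_sum, ← Finset.sum_add_distrib]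
        refine Finset.sum_congr rfl fun i _ => ?_
        simp only [hb2]; ring
      rw [t2, ← hl]
      field_simp
      ring_nf
      simp only [I_sq]
      ring
    simp only [e2]
    rw [tsum_mul_left]
    -- step 3 : swap
    have hE1 : Summable (fun y0 => ‖E y0‖) := by
      have hB1 : PD (fun _ _ => 1 : Matrix (Fin 1) (Fin 1) ℝ) := by
        intro x hx
        have : x 0 ≠ 0 := fun h => hx (funext fun i => by rw [Subsingleton.elim i 0, h]; rfl)
        simp only [qr, Fin.sum_univ_one, one_mul]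
        exact mul_self_pos.mpr this
      have h1 := (summable_gU hB1 haα (fun _ => b 0)).norm
      have h2 := h1.comp_injective (i := fun (k : ℤ) (_ : Fin 1) => k)
        (fun k k' h => congrFun h 0)
      refine h2.congr fun k => ?_
      simp only [Function.comp, gU, qf, Fin.sum_univ_one, hE]
      rw [ofReal_one, one_mul, ← sq]
    have hnorm : ∀ (y0 : ℤ) (x : Fin n → ℤ), ‖gT (sch A) a (b2 y0) x‖ =
        ‖gT (sch A) a (b2 0) x‖ := by
      intro y0 x
      rw [norm_gT, norm_gT]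
      congr 3
      refine Finset.sum_congr rfl fun i _ => ?_
      congr 1
      simp only [hb2, add_re, div_ofReal_re]
      simp
    have hM : Summable (fun p : ℤ × (Fin n → ℤ) => E p.1 * gT (sch A) a (b2 p.1) p.2) := by
      refine Summable.of_norm ?_
      have := hE1.mul_of_nonneg (summable_norm_gT hS ha (b2 0)) (fun _ => norm_nonneg _)
        (fun _ => norm_nonneg _)
      refine this.congr fun p => ?_
      rw [norm_mul, hnorm p.1]
    rw [Summable.tsum_comm (f := fun (y0 : ℤ) (x : Fin n → ℤ) => E y0 * gT (sch A) a (b2 y0) x) hM]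
    -- step 4 : induction
    have e3 : ∀ y0 : ℤ, ∑' x : Fin n → ℤ, E y0 * gT (sch A) a (b2 y0) x =
        c * (1 / a ^ (1 / 2 : ℂ)) ^ n * ∑' y : Fin n → ℤ, gU B a b (Fin.cons y0 y) := by
      intro y0
      rw [tsum_mul_left, ih a ha, mul_left_comm, ← tsum_mul_left]
      congr 1
      refine tsum_congr fun y => ?_
      have t1 : (fun i => ((Fin.cons y0 y : Fin (n + 1) → ℤ) i : ℂ) + I * b i) =
          (Fin.cons (y0 + I * b 0) (fun i => (y i : ℂ) + I * b i.succ) : Fin (n + 1) → ℂ) := by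
        funext i
        refine Fin.cases ?_ (fun j => ?_) i <;> simp
      rw [gU, gU, t1, qf_inv_cons hs hsB h0.ne' hAB, hE, ← Complex.exp_add]
      have t2 : (fun i => (y i : ℂ) + I * b2 y0 i) = (fun i => (y i : ℂ) + I * b i.succ +
          -((y0 + I * b 0) * A i.succ 0 / A 0 0)) := by
        funext i
        simp only [hb2]
        ring_nf
        simp only [I_sq, I_pow_three]
        ring
      rw [t2]
      congr 1
      field_simp
      ring
    simp only [e3]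
    rw [tsum_mul_left]
    have hU := summable_gU (hA.inv hsB hAB) ha b
    rw [← (Fin.consEquiv fun _ : Fin (n + 1) => ℤ).summable_iff] at hU
    rw [← (Fin.consEquiv fun _ : Fin (n + 1) => ℤ).tsum_eq (gU B a b)]
    have e4 : ∑' p : ℤ × (Fin n → ℤ), gU B a b ((Fin.consEquiv fun _ : Fin (n + 1) => ℤ) p) =
        ∑' y0 : ℤ, ∑' y : Fin n → ℤ, gU B a b (Fin.cons y0 y) := hU.tsum_prod
    rw [e4, hK, cpow_half_mul ha h0, pow_succ]
    have : ((√(A 0 0) : ℝ) : ℂ) ≠ 0 := ofReal_ne_zero.mpr hsq.ne'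
    have h5 : a ^ (1 / 2 : ℂ) ≠ 0 := by
      rw [Ne, cpow_eq_zero_iff]; exact fun h => ha0 h.1
    push_cast
    field_simp

end Cfsg.Agent.Th23
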